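import Cfsg.Agent.SympInvol.Pieces
import Cfsg.Agent.PolarPair.Count

/-!
Grouping the planes into summands of a fixed dimension.
-/

set_option autoImplicit false

namespace CfsgLib.SympInvol

section Comb

variable {β : Type*} [DecidableEq β] (g : β → β) (hg : ∀ x, g (g x) = x)

include hg

theorem image_image_g (S : Finset β) : (S.image g).image g = S := by
  rw [Finset.image_image, show g ∘ g = id from funext hg, Finset.image_id]

theorem inv_sdiff {U S : Finset β} (hU : ∀ x ∈ U, g x ∈ U) (hS : ∀ x ∈ S, g x ∈ S) : ∀ x ∈ U \ S, g x ∈ U \ S := by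
  intro x hx
  rw [Finset.mem_sdiff] at hx ⊢
  exact ⟨hU x hx.1, fun h => hx.2 (hg x ▸ hS _ h)⟩

theorem exists_invariant (m : ℕ) : ∀ U : Finset β, (∀ x ∈ U, g x ∈ U) → m ≤ U.card →
    (∃ S ⊆ U, S.card = m ∧ ∀ x ∈ S, g x ∈ S) ∨ ((∀ x ∈ U, g x ≠ x) ∧ Odd m) := by
  induction m using Nat.strong_induction_on with
  | _ m ih =>
  intro U hU hm
  by_cases hall : ∀ x ∈ U, g x = x
  · obtain ⟨S, hS, hSc⟩ := Finset.exists_subset_card_eq hm
    exact Or.inl ⟨S, hS, hSc, fun x hx => (hall x (hS hx)).symm ▸ hx⟩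
  push Not at hall
  obtain ⟨x, hx, hxne⟩ := hall
  match m, ih, hm with
  | 0, _, _ => exact Or.inl ⟨∅, by simp, rfl, by simp⟩
  | 1, _, _ =>
    by_cases hf : ∃ y ∈ U, g y = y
    · obtain ⟨y, hy, hy'⟩ := hf
      exact Or.inl ⟨{y}, by simpa using hy, rfl, by simpa using hy'⟩
    · push Not at hf
      exact Or.inr ⟨hf, odd_one⟩
  | m + 2, ih, hm =>
    have hp : ({x, g x} : Finset β) ⊆ U := by
      intro y hy; simp only [Finset.mem_insert, Finset.mem_singleton] at hy; rcases hy with rfl | rfl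
      exacts [hx, hU x hx]
    have hpi : ∀ y ∈ ({x, g x} : Finset β), g y ∈ ({x, g x} : Finset β) := by
      intro y hy; simp only [Finset.mem_insert, Finset.mem_singleton] at hy ⊢; rcases hy with rfl | rfl
      exacts [Or.inr rfl, Or.inl (hg x)]
    have hpc : ({x, g x} : Finset β).card = 2 := Finset.card_pair (Ne.symm hxne)
    have hcard : (U \ {x, g x}).card = U.card - 2 := by rw [Finset.card_sdiff_of_subset hp, hpc]
    rcases ih m (by omega) (U \ {x, g x}) (inv_sdiff g hg hU hpi) (by omega) with ⟨S, hS, hSc, hSi⟩ | ⟨hf, hodd⟩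
    · refine Or.inl ⟨S ∪ {x, g x}, Finset.union_subset (hS.trans Finset.sdiff_subset) hp, ?_, fun y hy => ?_⟩
      · rw [Finset.card_union_of_disjoint (Finset.disjoint_of_subset_left hS Finset.sdiff_disjoint), hpc, hSc]
      · rcases Finset.mem_union.1 hy with h | h
        exacts [Finset.mem_union_left _ (hSi y h), Finset.mem_union_right _ (hpi y h)]
    · refine Or.inr ⟨fun y hy => ?_, hodd.add_even even_two⟩
      by_cases hyp : y ∈ ({x, g x} : Finset β)
      · simp only [Finset.mem_insert, Finset.mem_singleton] at hyp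
        rcases hyp with rfl | rfl
        · exact hxne
        · exact fun e => hxne ((hg x) ▸ e).symm
      · exact hf y (Finset.mem_sdiff.2 ⟨hy, hyp⟩)

theorem exists_half (j : ℕ) : ∀ U : Finset β, (∀ x ∈ U, g x ∈ U) → (∀ x ∈ U, g x ≠ x) → 2 * j ≤ U.card + 1 →
    ∃ S ⊆ U, S.card = j ∧ S.image g ⊆ U ∧ Disjoint S (S.image g) := by
  induction j with
  | zero => intro U _ _ _; exact ⟨∅, by simp, rfl, by simp, by simp⟩
  | succ j ih =>
    intro U hU hne hj
    obtain ⟨x, hx⟩ : U.Nonempty := Finset.card_pos.1 (by omega)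
    have hp : ({x, g x} : Finset β) ⊆ U := by
      intro y hy; simp only [Finset.mem_insert, Finset.mem_singleton] at hy; rcases hy with rfl | rfl
      exacts [hx, hU x hx]
    have hpi : ∀ y ∈ ({x, g x} : Finset β), g y ∈ ({x, g x} : Finset β) := by
      intro y hy; simp only [Finset.mem_insert, Finset.mem_singleton] at hy ⊢; rcases hy with rfl | rfl
      exacts [Or.inr rfl, Or.inl (hg x)]
    have hpc : ({x, g x} : Finset β).card = 2 := Finset.card_pair (Ne.symm (hne x hx))
    have hc2 := Finset.card_le_card hp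
    have hcard : (U \ {x, g x}).card = U.card - 2 := by rw [Finset.card_sdiff_of_subset hp, hpc]
    obtain ⟨S, hS, hSc, hSg, hSd⟩ := ih (U \ {x, g x}) (inv_sdiff g hg hU hpi)
      (fun y hy => hne y (Finset.mem_sdiff.1 hy).1) (by omega)
    have hxS : x ∉ S := fun h => (Finset.mem_sdiff.1 (hS h)).2 (by simp)
    refine ⟨insert x S, Finset.insert_subset hx (hS.trans Finset.sdiff_subset), ?_, ?_, ?_⟩
    · rw [Finset.card_insert_of_notMem hxS, hSc]
    · rw [Finset.image_insert]
      exact Finset.insert_subset (hU x hx) (hSg.trans Finset.sdiff_subset)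
    · rw [Finset.image_insert, Finset.disjoint_insert_left, Finset.disjoint_insert_right]
      refine ⟨fun h => ?_, fun h => (Finset.mem_sdiff.1 (hS h)).2 (by simp), hSd⟩
      rcases Finset.mem_insert.1 h with h | h
      · exact hne x hx h.symm
      · exact (Finset.mem_sdiff.1 (hSg h)).2 (by simp)

/-- An invariant set of size `t * m` splits into `t` sets of size `m` permuted by the involution. -/
theorem exists_bins {m : ℕ} (hm : 0 < m) (t : ℕ) : ∀ U : Finset β, (∀ x ∈ U, g x ∈ U) → U.card = t * m →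
    ∃ L : Finset (Finset β), L.card = t ∧ (∀ S ∈ L, S ⊆ U ∧ S.card = m ∧ S.image g ∈ L) ∧
      (L : Set (Finset β)).Pairwise Disjoint ∧ (∀ x ∈ U, ∃ S ∈ L, x ∈ S) := by
  induction t using Nat.strong_induction_on with
  | _ t ih =>
  intro U hU hc
  rcases Nat.eq_zero_or_pos t with rfl | ht
  · refine ⟨∅, rfl, by simp, by simp, fun x hx => ?_⟩
    rw [zero_mul, Finset.card_eq_zero] at hc
    simp [hc] at hx
  obtain ⟨t, rfl⟩ : ∃ t', t = t' + 1 := ⟨t - 1, by omega⟩
  have glue : ∀ (K : Finset (Finset β)) (s : ℕ), (∀ S ∈ K, S ⊆ U ∧ S.card = m ∧ S.image g ∈ K) →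
      (K : Set (Finset β)).Pairwise Disjoint → K.card + s = t + 1 → 0 < K.card →
      (U \ K.biUnion id).card = s * m →
      ∃ L : Finset (Finset β), L.card = t + 1 ∧ (∀ S ∈ L, S ⊆ U ∧ S.card = m ∧ S.image g ∈ L) ∧
      (L : Set (Finset β)).Pairwise Disjoint ∧ (∀ x ∈ U, ∃ S ∈ L, x ∈ S) := by
    intro K s hK hKd hKc hK0 hcs
    have hinv : ∀ x ∈ K.biUnion id, g x ∈ K.biUnion id := fun x hx => by
      obtain ⟨S, hS, hxS⟩ := Finset.mem_biUnion.1 hx
      exact Finset.mem_biUnion.2 ⟨_, (hK S hS).2.2, Finset.mem_image_of_mem g hxS⟩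
    obtain ⟨L, hLc, hL, hLd, hLu⟩ := ih s (by omega) (U \ K.biUnion id) (inv_sdiff g hg hU hinv) hcs
    have hdisj : ∀ S ∈ K, ∀ S' ∈ L, Disjoint S S' := fun S hS S' hS' => Finset.disjoint_left.2 fun x hx hx' =>
      (Finset.mem_sdiff.1 ((hL S' hS').1 hx')).2 (Finset.mem_biUnion.2 ⟨S, hS, hx⟩)
    have hKL : Disjoint K L := Finset.disjoint_left.2 fun S hS hS' => by
      have h := hdisj S hS S hS'
      rw [disjoint_self, Finset.bot_eq_empty] at h
      have := (hK S hS).2.1
      rw [h, Finset.card_empty] at this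
      omega
    refine ⟨K ∪ L, by rw [Finset.card_union_of_disjoint hKL, hLc, hKc], fun S hS => ?_, ?_, fun x hx => ?_⟩
    · rcases Finset.mem_union.1 hS with h | h
      · exact ⟨(hK S h).1, (hK S h).2.1, Finset.mem_union_left _ (hK S h).2.2⟩
      · exact ⟨(hL S h).1.trans Finset.sdiff_subset, (hL S h).2.1, Finset.mem_union_right _ (hL S h).2.2⟩
    · intro S hS S' hS' hne
      rcases Finset.mem_union.1 hS with h | h <;> rcases Finset.mem_union.1 hS' with h' | h'
      exacts [hKd h h' hne, hdisj S h S' h', (hdisj S' h' S h).symm, hLd h h' hne]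
    · by_cases hxK : x ∈ K.biUnion id
      · obtain ⟨S, hS, hxS⟩ := Finset.mem_biUnion.1 hxK
        exact ⟨S, Finset.mem_union_left _ hS, hxS⟩
      · obtain ⟨S, hS, hxS⟩ := hLu x (Finset.mem_sdiff.2 ⟨hx, hxK⟩)
        exact ⟨S, Finset.mem_union_right _ hS, hxS⟩
  rcases exists_invariant g hg m U hU (hc ▸ Nat.le_mul_of_pos_left _ ht) with ⟨S, hS, hSc, hSi⟩ | ⟨hne, hodd⟩
  · have himg : S.image g = S :=
      Finset.Subset.antisymm (fun y hy => by obtain ⟨x, hx, rfl⟩ := Finset.mem_image.1 hy; exact hSi x hx)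
        (fun y hy => Finset.mem_image.2 ⟨g y, hSi y hy, hg y⟩)
    refine glue {S} t (fun X hX => ?_) (by simp) (by rw [Finset.card_singleton]; omega) (by simp) ?_
    · rw [Finset.mem_singleton] at hX; subst hX; exact ⟨hS, hSc, by rw [himg]; exact Finset.mem_singleton_self _⟩
    · rw [Finset.singleton_biUnion, id, Finset.card_sdiff_of_subset hS, hc, hSc, add_one_mul, Nat.add_sub_cancel]
  have h2j : 2 * m ≤ U.card + 1 := by
    rcases Nat.eq_zero_or_pos t with rfl | ht1
    · obtain ⟨i, rfl⟩ := hodd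
      obtain ⟨S, hS, hSc, hSg, hSd⟩ := exists_half g hg (i + 1) U hU hne (by omega)
      have := Finset.card_le_card (Finset.union_subset hS hSg)
      rw [Finset.card_union_of_disjoint hSd, Finset.card_image_of_injective _ (Function.LeftInverse.injective hg),
        hSc, hc] at this
      omega
    · rw [hc]; nlinarith
  obtain ⟨S, hS, hSc, hSg, hSd⟩ := exists_half g hg m U hU hne h2j
  have hne' : S ≠ S.image g := fun e => by
    rw [← e, disjoint_self, Finset.bot_eq_empty] at hSd
    rw [hSd, Finset.card_empty] at hSc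
    omega
  have hcu : (S ∪ S.image g).card = 2 * m := by
    rw [Finset.card_union_of_disjoint hSd, Finset.card_image_of_injective _ (Function.LeftInverse.injective hg), hSc]
    ring
  have h2U := Finset.card_le_card (Finset.union_subset hS hSg)
  rw [hcu, hc] at h2U
  have ht1 : 1 ≤ t := by
    by_contra h0
    have : t = 0 := by omega
    subst this; omega
  refine glue {S, S.image g} (t - 1) (fun X hX => ?_) ?_ ?_ ?_ ?_
  · simp only [Finset.mem_insert, Finset.mem_singleton] at hX
    rcases hX with rfl | rfl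
    · exact ⟨hS, hSc, by simp⟩
    · refine ⟨hSg, by rw [Finset.card_image_of_injective _ (Function.LeftInverse.injective hg), hSc], ?_⟩
      rw [image_image_g g hg]; simp
  · intro X hX Y hY hne''
    simp only [Finset.coe_insert, Finset.coe_singleton, Set.mem_insert_iff, Set.mem_singleton_iff] at hX hY
    rcases hX with rfl | rfl <;> rcases hY with rfl | rfl
    exacts [absurd rfl hne'', hSd, hSd.symm, absurd rfl hne'']
  · rw [Finset.card_pair hne']; omega
  · rw [Finset.card_pair hne']; omega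
  · rw [Finset.biUnion_insert, Finset.singleton_biUnion, id, id,
      Finset.card_sdiff_of_subset (Finset.union_subset hS hSg), hc, hcu, show t + 1 = t - 1 + 2 by omega, add_mul,
      Nat.add_sub_cancel_right]

end Comb

variable {F : Type*} [Field F] {V : Type*} [AddCommGroup V] [Module F V] [FiniteDimensional F V]
variable {B : LinearMap.BilinForm F V} {T : V →ₗ[F] V} {z : F} (h : Setting B T z)

include h

theorem Setting.sup_planes {P : Finset (Submodule F V)} (hP : ∀ A ∈ P, ND B A ∧ Module.finrank F A = 2)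
    (hPo : ∀ A ∈ P, ∀ A' ∈ P, A ≠ A' → ∀ u ∈ A, ∀ v ∈ A', B u v = 0) :
    ∀ S ⊆ P, ND B (S.sup id) ∧ Module.finrank F ↥(S.sup id) = 2 * S.card ∧
      ∀ A ∈ P, A ∉ S → ∀ u ∈ S.sup id, ∀ v ∈ A, B u v = 0 := by
  classical
  intro S hS
  induction S using Finset.induction_on with
  | empty =>
    refine ⟨fun u hu _ => by simpa using hu, by simp, fun A _ _ u hu v _ => ?_⟩
    simp only [Finset.sup_empty, Submodule.mem_bot] at hu
    simp [hu]
  | @insert A S hA ih =>
    rw [Finset.insert_subset_iff] at hS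
    obtain ⟨hn, hd, hperp⟩ := ih hS.2
    rw [Finset.sup_insert, id]
    have hAS : ∀ u ∈ S.sup id, ∀ v ∈ A, B u v = 0 := hperp A hS.1 hA
    refine ⟨?_, ?_, ?_⟩
    · intro u hu hp
      obtain ⟨a, ha, b, hb, rfl⟩ := Submodule.mem_sup.1 hu
      have ha0 : a = 0 := (hP A hS.1).1 a ha fun x hx => by
        have := hp x (Submodule.mem_sup_left hx)
        rwa [map_add, LinearMap.add_apply, hAS b hb x hx, add_zero] at this
      have hb0 : b = 0 := hn b hb fun x hx => by
        have := hp x (Submodule.mem_sup_right hx)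
        rwa [map_add, LinearMap.add_apply, h.refl _ _ (hAS x hx a ha), zero_add] at this
      rw [ha0, hb0, add_zero]
    · have h0 : A ⊓ S.sup id = ⊥ := (Submodule.eq_bot_iff _).2 fun u hu => (hP A hS.1).1 u hu.1 fun w hw => hAS u hu.2 w hw
      have := Submodule.finrank_sup_add_finrank_inf_eq A (S.sup id)
      rw [h0, finrank_bot, (hP A hS.1).2, hd] at this
      rw [Finset.card_insert_of_notMem hA]
      omega
    · intro A' hA' hnot u hu v hv
      rw [Finset.mem_insert, not_or] at hnot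
      obtain ⟨a, ha, b, hb, rfl⟩ := Submodule.mem_sup.1 hu
      rw [map_add, LinearMap.add_apply, hPo A hS.1 A' hA' (Ne.symm hnot.1) a ha v hv, hperp A' hA' hnot.2 b hb v hv,
        add_zero]

/-- A decomposition into `t` orthogonal nondegenerate summands of dimension `2 m` permuted by `T`. -/
theorem Setting.decomposition (hV : ND B ⊤) {m t : ℕ} (hm : 0 < m) (hd : Module.finrank F V = t * m * 2) :
    ∃ D : Fin t → Submodule F V, (∀ j, ND B (D j) ∧ Module.finrank F (D j) = 2 * m) ∧
      (∀ j j', j ≠ j' → ∀ u ∈ D j, ∀ v ∈ D j', B u v = 0) ∧ iSupIndep D ∧ iSup D = ⊤ ∧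
      ∃ σ : Equiv.Perm (Fin t), ∀ j, (D j).map T = D (σ j) := by
  classical
  obtain ⟨P, hP, hPo, hPT, hPs⟩ := h.planes hV (fun _ _ => Submodule.mem_top)
  have hsp := h.sup_planes hP hPo
  have hcard : P.card = t * m := by
    have := (hsp P Finset.Subset.rfl).2.1
    rw [hPs, finrank_top, hd] at this
    omega
  obtain ⟨L, hLc, hL, hLd, hLu⟩ :=
    exists_bins (fun A : Submodule F V => A.map T) h.map_map hm t P hPT hcard
  let e : Fin t ≃ L := (Finset.equivFinOfCardEq hLc).symm
  let D : Fin t → Submodule F V := fun j => (e j : Finset (Submodule F V)).sup id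
  have hperp : ∀ j j', j ≠ j' → ∀ u ∈ D j, ∀ v ∈ D j', B u v = 0 := by
    intro j j' hne u hu v hv
    have hd' : Disjoint (e j : Finset (Submodule F V)) (e j') :=
      hLd (e j).2 (e j').2 fun he => hne (e.injective (Subtype.ext he))
    have : ∀ A ∈ (e j' : Finset (Submodule F V)), A ≤ LinearMap.ker (B u) := fun A hA x hx =>
      (hsp _ (hL _ (e j).2).1).2.2 A ((hL _ (e j').2).1 hA) (Finset.disjoint_right.1 hd' hA) u hu x hx
    exact Finset.sup_le this hv
  have hnd : ∀ j, ND B (D j) ∧ Module.finrank F (D j) = 2 * m := fun j =>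
    ⟨(hsp _ (hL _ (e j).2).1).1, by rw [(hsp _ (hL _ (e j).2).1).2.1, (hL _ (e j).2).2.1]⟩
  have himg : ∀ S : Finset (Submodule F V), (S.sup id).map T = (S.image fun A => A.map T).sup id := by
    intro S
    rw [Finset.sup_image]
    induction S using Finset.induction_on with
    | empty => simp
    | @insert A S _ ih => rw [Finset.sup_insert, Finset.sup_insert, Submodule.map_sup, ih]; rfl
  let τ : Fin t → Fin t := fun j => e.symm ⟨_, (hL _ (e j).2).2.2⟩
  have hττ : ∀ j, τ (τ j) = j := fun j => by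
    apply e.injective
    refine Subtype.ext ?_
    simp only [τ, Equiv.apply_symm_apply]
    exact image_image_g _ h.map_map _
  refine ⟨D, hnd, hperp, ?_, ?_, ⟨⟨τ, τ, hττ, hττ⟩, fun j => ?_⟩⟩
  · intro j
    rw [disjoint_iff, Submodule.eq_bot_iff]
    intro u hu
    refine (hnd j).1 u hu.1 fun w hw => ?_
    have : ⨆ (i) (_ : i ≠ j), D i ≤ LinearMap.ker (B.flip w) := iSup₂_le fun i hi x hx => hperp i j hi x hx w hw
    exact this hu.2
  · rw [eq_top_iff, ← hPs, Finset.sup_le_iff]
    intro A hA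
    obtain ⟨S, hS, hAS⟩ := hLu A hA
    refine le_trans ?_ (le_iSup D (e.symm ⟨S, hS⟩))
    show A ≤ (e (e.symm ⟨S, hS⟩) : Finset (Submodule F V)).sup id
    rw [Equiv.apply_symm_apply]
    exact Finset.le_sup (f := id) hAS
  · show ((e j : Finset (Submodule F V)).sup id).map T = (e (τ j) : Finset (Submodule F V)).sup id
    rw [himg]
    simp only [τ, Equiv.apply_symm_apply]

omit h

open Matrix in
/-- The setting of a symplectic matrix with scalar square. -/
theorem setting_of_symplectic {F : Type*} [Field F] {d : ℕ} (hd : 0 < d) (x : ↥(Matrix.symplecticGroup (Fin d) F))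
    {z : F} (hx : ((x ^ 2 : ↥(Matrix.symplecticGroup (Fin d) F)) : Matrix (Fin d ⊕ Fin d) (Fin d ⊕ Fin d) F) =
      z • (1 : Matrix (Fin d ⊕ Fin d) (Fin d ⊕ Fin d) F)) :
    Setting (CfsgLib.PolarPair.bform F d) (Matrix.toLin' (x : Matrix (Fin d ⊕ Fin d) (Fin d ⊕ Fin d) F)) z ∧
      ND (CfsgLib.PolarPair.bform F d) ⊤ := by
  haveI : Nonempty (Fin d ⊕ Fin d) := ⟨Sum.inl ⟨0, hd⟩⟩
  refine ⟨⟨fun v => CfsgLib.SpGeom.form_self v, fun u v => ?_, fun v => ?_, fun e => ?_⟩, fun u _ hu => ?_⟩
  · rw [Matrix.toLin'_apply, Matrix.toLin'_apply]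
    exact CfsgLib.SpGeom.form_mulVec x u v
  · rw [Matrix.toLin'_apply, Matrix.toLin'_apply, Matrix.mulVec_mulVec, ← pow_two]
    rw [SubmonoidClass.coe_pow] at hx
    rw [hx, Matrix.smul_mulVec, Matrix.one_mulVec]
  · rw [e, zero_smul] at hx
    obtain ⟨w, hw⟩ := exists_ne (0 : Fin d ⊕ Fin d → F)
    apply hw
    have h1 := CfsgLib.SpGeom.inv_mulVec (x ^ 2) w
    rw [hx, Matrix.zero_mulVec, Matrix.mulVec_zero] at h1
    exact h1.symm
  · by_contra hu0
    obtain ⟨w, hw⟩ := CfsgLib.SpGeom.exists_form_ne_zero hu0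
    exact hw (hu w Submodule.mem_top)

end CfsgLib.SympInvol
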