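import Mathlib

/-!
An isometry `T` of a symplectic space with scalar square: orthogonal decomposition into invariant planes and
interchanged pairs of planes, and invariant or interchanged pairs of complementary isotropic subspaces.
-/

set_option autoImplicit false

namespace CfsgLib.SympInvol

variable {F : Type*} [Field F] {V : Type*} [AddCommGroup V] [Module F V] [FiniteDimensional F V]

/-- The restriction of the form to `W` is non-degenerate. -/
def ND (B : LinearMap.BilinForm F V) (W : Submodule F V) : Prop := ∀ u ∈ W, (∀ w ∈ W, B u w = 0) → u = 0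

/-- An alternating form with an isometry of scalar square. -/
structure Setting (B : LinearMap.BilinForm F V) (T : V →ₗ[F] V) (z : F) : Prop where
  alt : ∀ v, B v v = 0
  iso : ∀ u v, B (T u) (T v) = B u v
  sq : ∀ v, T (T v) = z • v
  z_ne : z ≠ 0

variable {B : LinearMap.BilinForm F V} {T : V →ₗ[F] V} {z : F} (h : Setting B T z)

include h

theorem Setting.skew (u v : V) : B v u = -B u v := by
  have := h.alt (u + v)
  simp only [map_add, LinearMap.add_apply, h.alt, zero_add, add_zero] at this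
  linear_combination this

theorem Setting.refl : B.IsRefl := fun u v huv => by rw [h.skew, huv, neg_zero]

theorem Setting.T_left (u v : V) : B (T u) v = z⁻¹ * B u (T v) := by
  have h1 := h.iso u (T v)
  rw [h.sq, map_smul, smul_eq_mul] at h1
  rw [← h1, ← mul_assoc, inv_mul_cancel₀ h.z_ne, one_mul]

/-- An invariant nondegenerate part splits off with an invariant nondegenerate complement. -/
theorem Setting.split {W R : Submodule F V} (hW : ND B W) (hTW : ∀ v ∈ W, T v ∈ W) (hR : ND B R) (hRW : R ≤ W)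
    (hTR : ∀ v ∈ R, T v ∈ R) (hR0 : R ≠ ⊥) :
    R ⊔ W ⊓ B.orthogonal R = W ∧ ND B (W ⊓ B.orthogonal R) ∧ (∀ v ∈ W ⊓ B.orthogonal R, T v ∈ W ⊓ B.orthogonal R) ∧
      Module.finrank F ↥(W ⊓ B.orthogonal R) < Module.finrank F W := by
  have hc : IsCompl R (B.orthogonal R) := by
    refine LinearMap.BilinForm.isCompl_orthogonal_of_restrict_nondegenerate h.refl ?_
    refine ⟨fun u hu => Subtype.ext (hR u u.2 fun w hw => hu ⟨w, hw⟩), fun u hu => Subtype.ext (hR u u.2 fun w hw => ?_)⟩
    have := hu ⟨w, hw⟩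
    rw [h.skew]
    exact neg_eq_zero.2 this
  have hsup : R ⊔ W ⊓ B.orthogonal R = W := by
    rw [inf_comm, ← sup_inf_assoc_of_le _ hRW, hc.sup_eq_top, top_inf_eq]
  refine ⟨hsup, ?_, ?_, Submodule.finrank_lt_finrank_of_lt (lt_of_le_of_ne inf_le_left fun e => hR0 ?_)⟩
  · intro u hu hperp
    refine hW u hu.1 fun w hw => ?_
    rw [← hsup, Submodule.mem_sup] at hw
    obtain ⟨r, hr, s, hs, rfl⟩ := hw
    rw [map_add, hperp s hs, add_zero, h.skew, hu.2 r hr, neg_zero]
  · intro v hv
    refine ⟨hTW v hv.1, fun r hr => ?_⟩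
    have h1 : B (T r) v = 0 := hv.2 _ (hTR r hr)
    rw [h.T_left] at h1
    exact (mul_eq_zero.1 h1).resolve_left (inv_ne_zero h.z_ne)
  · rw [eq_bot_iff, ← hc.inf_eq_bot]
    exact le_inf le_rfl (hRW.trans (e ▸ inf_le_right))

/-- A pair of vectors with non-zero product spans a nondegenerate plane. -/
theorem Setting.nd_pair {v w : V} (hvw : B v w ≠ 0) :
    ND B (Submodule.span F {v, w}) ∧ Module.finrank F (Submodule.span F ({v, w} : Set V)) = 2 := by
  refine ⟨fun u hu hperp => ?_, ?_⟩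
  · obtain ⟨a, b, rfl⟩ := Submodule.mem_span_pair.1 hu
    have h1 := hperp w (Submodule.subset_span (by simp))
    have h2 := hperp v (Submodule.subset_span (by simp))
    simp only [map_add, map_smul, LinearMap.add_apply, LinearMap.smul_apply, smul_eq_mul, h.alt, mul_zero,
      add_zero, zero_add] at h1 h2
    rw [h.skew v w, mul_neg, neg_eq_zero] at h2
    rw [(mul_eq_zero.1 h1).resolve_right hvw, (mul_eq_zero.1 h2).resolve_right hvw, zero_smul, zero_smul, add_zero]
  · have hli : LinearIndependent F ![v, w] := by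
      refine LinearIndependent.pair_iff.2 fun a b hab => ?_
      have h1 : B (a • v + b • w) w = 0 := by rw [hab]; simp
      have h2 : B v (a • v + b • w) = 0 := by rw [hab]; simp
      simp only [map_add, map_smul, LinearMap.add_apply, LinearMap.smul_apply, smul_eq_mul, h.alt, mul_zero,
        add_zero, zero_add] at h1 h2
      exact ⟨(mul_eq_zero.1 h1).resolve_right hvw, (mul_eq_zero.1 h2).resolve_right hvw⟩
    have h2' := finrank_span_eq_card hli
    rwa [Matrix.range_cons_cons_empty, Fintype.card_fin] at h2'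

/-- A vector separating two independent vectors. -/
theorem Setting.exists_sep {W : Submodule F V} (hW : ND B W) (hTW : ∀ v ∈ W, T v ∈ W) {v : V} (hv : v ∈ W)
    (hind : ∀ c : F, v ≠ c • T v) : ∃ w ∈ W, B v w = 1 ∧ B (T v) w = 0 := by
  by_contra hno
  push Not at hno
  have hker : ∀ w ∈ W, B (T v) w = 0 → B v w = 0 := fun w hw h0 => by
    by_contra hne
    exact hno ((B v w)⁻¹ • w) (W.smul_mem _ hw) (by rw [map_smul, smul_eq_mul, inv_mul_cancel₀ hne])
      (by rw [map_smul, h0, smul_zero])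
  have hTv : T v ≠ 0 := fun e => hind 0 (by
    have := h.sq v
    rw [e, map_zero, eq_comm, smul_eq_zero] at this
    rw [zero_smul]; exact this.resolve_left h.z_ne)
  obtain ⟨w₀, hw₀, h₀⟩ : ∃ w ∈ W, B (T v) w ≠ 0 := by
    by_contra hall
    push Not at hall
    exact hTv (hW _ (hTW v hv) hall)
  refine hind (B v w₀ * (B (T v) w₀)⁻¹) (sub_eq_zero.1 (hW _ (W.sub_mem hv (W.smul_mem _ (hTW v hv))) fun w hw => ?_))
  have := hker (w - (B (T v) w * (B (T v) w₀)⁻¹) • w₀) (W.sub_mem hw (W.smul_mem _ hw₀))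
    (by rw [map_sub, map_smul, smul_eq_mul, mul_assoc, inv_mul_cancel₀ h₀, mul_one, sub_self])
  rw [map_sub, map_smul, smul_eq_mul] at this
  rw [map_sub B, map_smul B, LinearMap.sub_apply, LinearMap.smul_apply, smul_eq_mul]
  linear_combination this

omit h

/-- A family of mutually orthogonal nondegenerate planes permuted by `T`. -/
def Planes (B : LinearMap.BilinForm F V) (T : V →ₗ[F] V) (W : Submodule F V) : Prop :=
  ∃ P : Finset (Submodule F V), (∀ A ∈ P, ND B A ∧ Module.finrank F A = 2) ∧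
    (∀ A ∈ P, ∀ A' ∈ P, A ≠ A' → ∀ u ∈ A, ∀ v ∈ A', B u v = 0) ∧ (∀ A ∈ P, A.map T ∈ P) ∧ P.sup id = W

include h

/-- Gluing orthogonal families. -/
theorem Setting.planes_sup {R R' : Submodule F V} (hR : Planes B T R) (hR' : Planes B T R')
    (hperp : ∀ u ∈ R, ∀ v ∈ R', B u v = 0) : Planes B T (R ⊔ R') := by
  classical
  obtain ⟨P, hP, hPo, hPT, hPs⟩ := hR
  obtain ⟨Q, hQ, hQo, hQT, hQs⟩ := hR'
  have hle : ∀ A ∈ P, A ≤ R := fun A hA => hPs ▸ Finset.le_sup (f := id) hA
  have hle' : ∀ A ∈ Q, A ≤ R' := fun A hA => hQs ▸ Finset.le_sup (f := id) hA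
  refine ⟨P ∪ Q, ?_, ?_, ?_, by rw [Finset.sup_union, hPs, hQs]⟩
  · intro A hA
    rcases Finset.mem_union.1 hA with hA | hA
    exacts [hP A hA, hQ A hA]
  · intro A hA A' hA' hne u hu v hv
    rcases Finset.mem_union.1 hA with hA | hA <;> rcases Finset.mem_union.1 hA' with hA' | hA'
    · exact hPo A hA A' hA' hne u hu v hv
    · exact hperp u (hle A hA hu) v (hle' A' hA' hv)
    · exact h.refl _ _ (hperp v (hle A' hA' hv) u (hle' A hA hu))
    · exact hQo A hA A' hA' hne u hu v hv
  · intro A hA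
    rcases Finset.mem_union.1 hA with hA | hA
    exacts [Finset.mem_union_left _ (hPT A hA), Finset.mem_union_right _ (hQT A hA)]

theorem Setting.map_map (A : Submodule F V) : (A.map T).map T = A := by
  ext v
  simp only [Submodule.mem_map, exists_exists_and_eq_and, h.sq]
  refine ⟨fun ⟨u, hu, e⟩ => e ▸ A.smul_mem _ hu, fun hv => ⟨z⁻¹ • v, A.smul_mem _ hv, ?_⟩⟩
  rw [smul_smul, mul_inv_cancel₀ h.z_ne, one_smul]

/-- Every invariant nondegenerate subspace has such a family. -/
theorem Setting.planes {W : Submodule F V} (hW : ND B W) (hTW : ∀ v ∈ W, T v ∈ W) : Planes B T W := by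
  classical
  induction hn : Module.finrank F W using Nat.strong_induction_on generalizing W with
  | _ n ih =>
  subst hn
  by_cases hW0 : W = ⊥
  · exact ⟨∅, by simp, by simp, by simp, by simp [hW0]⟩
  -- it suffices to find one part
  suffices hR : ∃ R ≤ W, R ≠ ⊥ ∧ ND B R ∧ (∀ v ∈ R, T v ∈ R) ∧ Planes B T R by
    obtain ⟨R, hRW, hR0, hRn, hTR, hRP⟩ := hR
    obtain ⟨hsup, hn', hT', hlt⟩ := h.split hW hTW hRn hRW hTR hR0
    rw [← hsup]
    exact h.planes_sup hRP (ih _ hlt hn' hT' rfl) fun u hu v hv => hv.2 u hu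
  have single : ∀ v w : V, v ∈ W → w ∈ W → B v w ≠ 0 → T v ∈ Submodule.span F {v, w} →
      T w ∈ Submodule.span F {v, w} → ∃ R ≤ W, R ≠ ⊥ ∧ ND B R ∧ (∀ u ∈ R, T u ∈ R) ∧ Planes B T R := by
    intro v w hv hw hvw hTv hTw
    obtain ⟨hnd, hdim⟩ := h.nd_pair hvw
    set R := Submodule.span F ({v, w} : Set V) with hR
    have hTR : ∀ u ∈ R, T u ∈ R := fun u hu => by
      obtain ⟨a, b, rfl⟩ := Submodule.mem_span_pair.1 hu
      rw [map_add, map_smul, map_smul]
      exact R.add_mem (R.smul_mem _ hTv) (R.smul_mem _ hTw)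
    refine ⟨R, Submodule.span_le.2 (by intro u hu; rcases hu with rfl | rfl <;> assumption), fun e => ?_, hnd, hTR, {R},
      ?_, ?_, ?_, by simp⟩
    · rw [e, finrank_bot] at hdim; omega
    · intro A hA; rw [Finset.mem_singleton] at hA; subst hA; exact ⟨hnd, hdim⟩
    · intro A hA A' hA' hne; rw [Finset.mem_singleton] at hA hA'; exact absurd (hA.trans hA'.symm) hne
    · intro A hA
      rw [Finset.mem_singleton] at hA ⊢
      subst hA
      refine le_antisymm (Submodule.map_le_iff_le_comap.2 hTR) ?_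
      conv_lhs => rw [← h.map_map R]
      exact Submodule.map_mono (Submodule.map_le_iff_le_comap.2 hTR)
  by_cases hc : ∃ v ∈ W, B v (T v) ≠ 0
  · obtain ⟨v, hv, hvT⟩ := hc
    refine single v (T v) hv (hTW v hv) hvT (Submodule.subset_span (by simp)) ?_
    rw [h.sq]
    exact Submodule.smul_mem _ _ (Submodule.subset_span (by simp))
  push Not at hc
  by_cases hs : ∀ v ∈ W, ∃ c : F, v = c • T v
  · obtain ⟨v, hv, hv0⟩ := Submodule.exists_mem_ne_zero_of_ne_bot hW0
    obtain ⟨w, hw, hvw⟩ : ∃ w ∈ W, B v w ≠ 0 := by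
      by_contra hall
      push Not at hall
      exact hv0 (hW v hv hall)
    have hin : ∀ u ∈ W, ∃ a : F, T u = a • u := fun u hu => by
      obtain ⟨c, hc'⟩ := hs u hu
      rcases eq_or_ne c 0 with rfl | hc0
      · rw [zero_smul] at hc'; subst hc'; exact ⟨0, by simp⟩
      · refine ⟨c⁻¹, ?_⟩
        conv_rhs => rw [hc']
        rw [smul_smul, inv_mul_cancel₀ hc0, one_smul]
    obtain ⟨a, ha⟩ := hin v hv
    obtain ⟨b, hb⟩ := hin w hw
    exact single v w hv hw hvw (ha ▸ Submodule.smul_mem _ _ (Submodule.subset_span (by simp)))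
      (hb ▸ Submodule.smul_mem _ _ (Submodule.subset_span (by simp)))
  push Not at hs
  obtain ⟨v, hv, hind⟩ := hs
  obtain ⟨w, hw, hvw, hTvw⟩ := h.exists_sep hW hTW hv hind
  have hvTw : B v (T w) = 0 := by
    rw [h.T_left, mul_eq_zero] at hTvw
    exact hTvw.resolve_left (inv_ne_zero h.z_ne)
  set A := Submodule.span F ({v, w} : Set V) with hA
  set A' := Submodule.span F ({T v, T w} : Set V) with hA'
  have hmap : A.map T = A' := by rw [hA, hA', Submodule.map_span, Set.image_pair]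
  obtain ⟨hnd, hdim⟩ := h.nd_pair (v := v) (w := w) (by rw [hvw]; exact one_ne_zero)
  obtain ⟨hnd', hdim'⟩ := h.nd_pair (v := T v) (w := T w) (by rw [h.iso, hvw]; exact one_ne_zero)
  have hAW : A ≤ W := Submodule.span_le.2 (by intro u hu; rcases hu with rfl | rfl <;> assumption)
  have hA'W : A' ≤ W := hmap ▸ Submodule.map_le_iff_le_comap.2 (fun u hu => hTW u (hAW hu))
  have hperp : ∀ u ∈ A, ∀ u' ∈ A', B u u' = 0 := fun u hu u' hu' => by
    obtain ⟨a, b, rfl⟩ := Submodule.mem_span_pair.1 hu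
    obtain ⟨a', b', rfl⟩ := Submodule.mem_span_pair.1 hu'
    simp only [map_add, map_smul, LinearMap.add_apply, LinearMap.smul_apply, smul_eq_mul, hc v hv, hc w hw, hvTw,
      h.refl _ _ hTvw, mul_zero, add_zero]
  have hTsup : ∀ u ∈ A ⊔ A', T u ∈ A ⊔ A' := fun u hu => by
    obtain ⟨a, ha, b, hb, rfl⟩ := Submodule.mem_sup.1 hu
    rw [map_add, add_comm]
    refine Submodule.add_mem_sup ?_ (hmap ▸ Submodule.mem_map_of_mem ha)
    rw [← h.map_map A, hmap]
    exact Submodule.mem_map_of_mem hb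
  refine ⟨A ⊔ A', sup_le hAW hA'W, fun e => ?_, ?_, hTsup, {A, A'}, ?_, ?_, ?_, by simp⟩
  · rw [sup_eq_bot_iff] at e
    rw [← hA, e.1, finrank_bot] at hdim; omega
  · intro u hu hperp'
    obtain ⟨a, ha, b, hb, rfl⟩ := Submodule.mem_sup.1 hu
    have ha0 : a = 0 := hnd a ha fun x hx => by
      have := hperp' x (Submodule.mem_sup_left hx)
      rwa [map_add, LinearMap.add_apply, h.refl _ _ (hperp x hx b hb), add_zero] at this
    have hb0 : b = 0 := hnd' b hb fun x hx => by
      have := hperp' x (Submodule.mem_sup_right hx)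
      rwa [map_add, LinearMap.add_apply, hperp a ha x hx, zero_add] at this
    rw [ha0, hb0, add_zero]
  · intro X hX
    rcases Finset.mem_insert.1 hX with rfl | hX
    · exact ⟨hnd, hdim⟩
    · rw [Finset.mem_singleton] at hX; subst hX; exact ⟨hnd', hdim'⟩
  · intro X hX X' hX' hne u hu u' hu'
    simp only [Finset.mem_insert, Finset.mem_singleton] at hX hX'
    rcases hX with rfl | rfl <;> rcases hX' with rfl | rfl
    · exact absurd rfl hne
    · exact hperp u hu u' hu'
    · exact h.refl _ _ (hperp u' hu' u hu)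
    · exact absurd rfl hne
  · intro X hX
    simp only [Finset.mem_insert, Finset.mem_singleton] at hX ⊢
    rcases hX with rfl | rfl
    · exact Or.inr hmap
    · left; rw [← hmap, h.map_map]

omit h

/-- A pair of isotropic subspaces. -/
def Lagr (B : LinearMap.BilinForm F V) (T : V →ₗ[F] V) (swap : Bool) (W : Submodule F V) : Prop :=
  ∃ U₁ U₂ : Submodule F V, U₁ ⊔ U₂ = W ∧ (∀ u ∈ U₁, ∀ v ∈ U₁, B u v = 0) ∧ (∀ u ∈ U₂, ∀ v ∈ U₂, B u v = 0) ∧
    (∀ u ∈ U₁, T u ∈ cond swap U₂ U₁) ∧ (∀ u ∈ U₂, T u ∈ cond swap U₁ U₂)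

include h

theorem Setting.lagr_sup {s : Bool} {R R' : Submodule F V} (hR : Lagr B T s R) (hR' : Lagr B T s R')
    (hperp : ∀ u ∈ R, ∀ v ∈ R', B u v = 0) : Lagr B T s (R ⊔ R') := by
  obtain ⟨U₁, U₂, hU, i1, i2, t1, t2⟩ := hR
  obtain ⟨X₁, X₂, hX, j1, j2, s1, s2⟩ := hR'
  have iso : ∀ {U X : Submodule F V}, U ≤ R → X ≤ R' → (∀ u ∈ U, ∀ v ∈ U, B u v = 0) →
      (∀ u ∈ X, ∀ v ∈ X, B u v = 0) → ∀ u ∈ U ⊔ X, ∀ v ∈ U ⊔ X, B u v = 0 := by
    intro U X hUR hXR hU hX u hu v hv
    obtain ⟨a, ha, b, hb, rfl⟩ := Submodule.mem_sup.1 hu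
    obtain ⟨c, hc, d, hd, rfl⟩ := Submodule.mem_sup.1 hv
    simp only [map_add, LinearMap.add_apply, hU a ha c hc, hX b hb d hd, hperp a (hUR ha) d (hXR hd),
      h.refl _ _ (hperp c (hUR hc) b (hXR hb)), add_zero]
  refine ⟨U₁ ⊔ X₁, U₂ ⊔ X₂, by rw [sup_sup_sup_comm, hU, hX], iso (hU ▸ le_sup_left) (hX ▸ le_sup_left) i1 j1,
    iso (hU ▸ le_sup_right) (hX ▸ le_sup_right) i2 j2, fun u hu => ?_, fun u hu => ?_⟩
  all_goals
    obtain ⟨a, ha, b, hb, rfl⟩ := Submodule.mem_sup.1 hu
    rw [map_add]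
    cases s
  · exact Submodule.add_mem_sup (t1 a ha) (s1 b hb)
  · exact Submodule.add_mem_sup (t1 a ha) (s1 b hb)
  · exact Submodule.add_mem_sup (t2 a ha) (s2 b hb)
  · exact Submodule.add_mem_sup (t2 a ha) (s2 b hb)

/-- The invariant or interchanged pairs, in odd characteristic. -/
theorem Setting.lagr (h2 : (2 : F) ≠ 0) {s : Bool} (hs : s = true ↔ ∀ c : F, c ^ 2 ≠ z) {W : Submodule F V}
    (hW : ND B W) (hTW : ∀ v ∈ W, T v ∈ W) : Lagr B T s W := by
  classical
  induction hn : Module.finrank F W using Nat.strong_induction_on generalizing W with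
  | _ n ih =>
  subst hn
  by_cases hW0 : W = ⊥
  · refine ⟨⊥, ⊥, by simp [hW0], ?_, ?_, ?_, ?_⟩ <;> simp
  suffices hR : ∃ R ≤ W, R ≠ ⊥ ∧ ND B R ∧ (∀ v ∈ R, T v ∈ R) ∧ Lagr B T s R by
    obtain ⟨R, hRW, hR0, hRn, hTR, hRP⟩ := hR
    obtain ⟨hsup, hn', hT', hlt⟩ := h.split hW hTW hRn hRW hTR hR0
    rw [← hsup]
    exact h.lagr_sup hRP (ih _ hlt hn' hT' rfl) fun u hu v hv => hv.2 u hu
  have line : ∀ v : V, ∀ a ∈ Submodule.span F {v}, ∀ b ∈ Submodule.span F ({v} : Set V), B a b = 0 := fun v a ha b hb => by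
    obtain ⟨x, rfl⟩ := Submodule.mem_span_singleton.1 ha
    obtain ⟨y, rfl⟩ := Submodule.mem_span_singleton.1 hb
    simp [h.alt]
  have inv : ∀ U₁ U₂ : Submodule F V, (∀ u ∈ U₁, T u ∈ cond s U₂ U₁) → (∀ u ∈ U₂, T u ∈ cond s U₁ U₂) →
      ∀ u ∈ U₁ ⊔ U₂, T u ∈ U₁ ⊔ U₂ := fun U₁ U₂ t1 t2 u hu => by
    obtain ⟨a, ha, b, hb, rfl⟩ := Submodule.mem_sup.1 hu
    rw [map_add]
    cases s
    · exact Submodule.add_mem_sup (t1 a ha) (t2 b hb)
    · rw [add_comm]; exact Submodule.add_mem_sup (t2 b hb) (t1 a ha)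
  obtain ⟨v, hv, hv0⟩ := Submodule.exists_mem_ne_zero_of_ne_bot hW0
  cases s with
  | false =>
    obtain ⟨c, hc⟩ : ∃ c : F, c ^ 2 = z := by
      by_contra hno
      push Not at hno
      exact Bool.false_ne_true (hs.2 hno)
    have hc0 : c ≠ 0 := fun e => h.z_ne (by rw [← hc, e]; ring)
    have eig : ∀ u ∈ W, ∀ e : F, e ^ 2 = z → T (e • u + T u) = e • (e • u + T u) := fun u _ e he => by
      rw [map_add T, map_smul T, h.sq, smul_add, smul_smul, ← pow_two, he, add_comm]
    have dec : ∀ u : V, (c • u + T u) - ((-c) • u + T u) = (2 * c) • u := fun u => by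
      rw [two_mul, add_smul, neg_smul]; abel
    have getEig : ∀ u ∈ W, ∀ φ : V →ₗ[F] F, φ u ≠ 0 → ∃ x ∈ W, φ x ≠ 0 ∧ ∃ e : F, T x = e • x := by
      intro u hu φ hφ
      by_contra hno
      push Not at hno
      have h1 : φ (c • u + T u) = 0 := by
        by_contra hne
        exact hno _ (W.add_mem (W.smul_mem _ hu) (hTW u hu)) hne c (eig u hu c hc)
      have h3 : φ ((-c) • u + T u) = 0 := by
        by_contra hne
        exact hno _ (W.add_mem (W.smul_mem _ hu) (hTW u hu)) hne (-c) (eig u hu (-c) (by rw [neg_sq, hc]))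
      have h4 := congrArg φ (dec u)
      rw [map_sub, h1, h3, sub_zero, map_smul, smul_eq_mul, eq_comm, mul_eq_zero] at h4
      exact hφ (h4.resolve_left (mul_ne_zero h2 hc0))
    obtain ⟨u₁, hu₁, hB1⟩ : ∃ w ∈ W, B v w ≠ 0 := by
      by_contra hall
      push Not at hall
      exact hv0 (hW v hv hall)
    obtain ⟨x, hx, hx0, e, hxe⟩ := getEig v hv (B.flip u₁) hB1
    obtain ⟨y, hy, hy0, e', hye⟩ := getEig u₁ hu₁ (B x) hx0
    obtain ⟨hnd, hdim⟩ := h.nd_pair hy0
    have t1 : ∀ u ∈ Submodule.span F ({x} : Set V), T u ∈ cond false (Submodule.span F ({y} : Set V)) (Submodule.span F {x}) := fun u hu => by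
      obtain ⟨a, rfl⟩ := Submodule.mem_span_singleton.1 hu
      rw [map_smul, hxe, smul_smul]
      exact Submodule.smul_mem _ _ (Submodule.mem_span_singleton_self x)
    have t2 : ∀ u ∈ Submodule.span F ({y} : Set V), T u ∈ cond false (Submodule.span F ({x} : Set V)) (Submodule.span F {y}) := fun u hu => by
      obtain ⟨a, rfl⟩ := Submodule.mem_span_singleton.1 hu
      rw [map_smul, hye, smul_smul]
      exact Submodule.smul_mem _ _ (Submodule.mem_span_singleton_self y)
    have hR : Submodule.span F ({x, y} : Set V) = Submodule.span F {x} ⊔ Submodule.span F {y} := by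
      rw [← Submodule.span_union, Set.singleton_union]
    rw [hR] at hnd hdim
    refine ⟨_, sup_le (Submodule.span_le.2 (by simpa using hx)) (Submodule.span_le.2 (by simpa using hy)), fun e => ?_,
      hnd, inv _ _ t1 t2, _, _, rfl, line x, line y, t1, t2⟩
    rw [e, finrank_bot] at hdim; omega
  | true =>
    have hsq := hs.1 rfl
    have hind : ∀ c : F, v ≠ c • T v := fun c hc => by
      have h1 := congrArg T hc
      rw [map_smul, h.sq, smul_smul] at h1
      rcases eq_or_ne c 0 with rfl | hc0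
      · rw [zero_smul] at hc; exact hv0 hc
      have h3 : v = (c * c * z) • v := by
        conv_lhs => rw [hc, h1, smul_smul, ← mul_assoc]
      have h4 : (c * c * z - 1) • v = 0 := by rw [sub_smul, one_smul, ← h3, sub_self]
      refine hsq c⁻¹ ?_
      have h5 := sub_eq_zero.1 ((smul_eq_zero.1 h4).resolve_right hv0)
      field_simp
      linear_combination -h5
    by_cases hc : ∃ x ∈ W, B x (T x) ≠ 0
    · obtain ⟨x, hx, hxT⟩ := hc
      obtain ⟨hnd, hdim⟩ := h.nd_pair hxT
      have t1 : ∀ u ∈ Submodule.span F ({x} : Set V), T u ∈ cond true (Submodule.span F ({T x} : Set V)) (Submodule.span F {x}) := fun u hu => by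
        obtain ⟨a, rfl⟩ := Submodule.mem_span_singleton.1 hu
        rw [map_smul]
        exact Submodule.smul_mem _ _ (Submodule.mem_span_singleton_self (T x))
      have t2 : ∀ u ∈ Submodule.span F ({T x} : Set V), T u ∈ cond true (Submodule.span F ({x} : Set V)) (Submodule.span F {T x}) := fun u hu => by
        obtain ⟨a, rfl⟩ := Submodule.mem_span_singleton.1 hu
        rw [map_smul, h.sq, smul_smul]
        exact Submodule.smul_mem _ _ (Submodule.mem_span_singleton_self x)
      have hR : Submodule.span F ({x, T x} : Set V) = Submodule.span F {x} ⊔ Submodule.span F {T x} := by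
        rw [← Submodule.span_union, Set.singleton_union]
      rw [hR] at hnd hdim
      refine ⟨_, sup_le (Submodule.span_le.2 (by simpa using hx)) (Submodule.span_le.2 (by simpa using hTW x hx)),
        fun e => ?_, hnd, inv _ _ t1 t2, _, _, rfl, line x, line (T x), t1, t2⟩
      rw [e, finrank_bot] at hdim; omega
    push Not at hc
    obtain ⟨w, hw, hvw, hTvw⟩ := h.exists_sep hW hTW hv hind
    have hvTw : B v (T w) = 0 := by
      rw [h.T_left, mul_eq_zero] at hTvw
      exact hTvw.resolve_left (inv_ne_zero h.z_ne)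
    have hTwv : B (T w) v = 0 := h.refl _ _ hvTw
    set U₁ := Submodule.span F ({v, T w} : Set V)
    set U₂ := Submodule.span F ({T v, w} : Set V)
    have t1 : ∀ u ∈ U₁, T u ∈ U₂ := fun u hu => by
      obtain ⟨a, b, rfl⟩ := Submodule.mem_span_pair.1 hu
      rw [map_add, map_smul, map_smul, h.sq, smul_smul]
      exact Submodule.mem_span_pair.2 ⟨a, b * z, rfl⟩
    have t2 : ∀ u ∈ U₂, T u ∈ U₁ := fun u hu => by
      obtain ⟨a, b, rfl⟩ := Submodule.mem_span_pair.1 hu
      rw [map_add, map_smul, map_smul, h.sq, smul_smul]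
      exact Submodule.mem_span_pair.2 ⟨a * z, b, rfl⟩
    have hiso : ∀ x y : V, B x y = 0 → ∀ a ∈ Submodule.span F ({x, y} : Set V),
        ∀ b ∈ Submodule.span F ({x, y} : Set V), B a b = 0 := fun x y hxy a ha b hb => by
      obtain ⟨a1, a2, rfl⟩ := Submodule.mem_span_pair.1 ha
      obtain ⟨b1, b2, rfl⟩ := Submodule.mem_span_pair.1 hb
      simp [h.alt, hxy, h.refl _ _ hxy]
    refine ⟨U₁ ⊔ U₂, sup_le (Submodule.span_le.2 ?_) (Submodule.span_le.2 ?_), fun e => ?_, ?_, inv U₁ U₂ t1 t2,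
      U₁, U₂, rfl, hiso v (T w) hvTw, hiso (T v) w hTvw, t1, t2⟩
    · intro u hu; rcases hu with rfl | rfl
      exacts [hv, hTW w hw]
    · intro u hu; rcases hu with rfl | rfl
      exacts [hTW v hv, hw]
    · rw [sup_eq_bot_iff] at e
      have : v ∈ U₁ := Submodule.subset_span (by simp)
      rw [e.1] at this
      exact hv0 this
    · intro u hu hperp
      obtain ⟨a, ha, b, hb, rfl⟩ := Submodule.mem_sup.1 hu
      obtain ⟨a1, a2, rfl⟩ := Submodule.mem_span_pair.1 ha
      obtain ⟨b1, b2, rfl⟩ := Submodule.mem_span_pair.1 hb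
      have e1 := hperp v (Submodule.mem_sup_left (Submodule.subset_span (by simp)))
      have e2 := hperp w (Submodule.mem_sup_right (Submodule.subset_span (by simp)))
      have e3 := hperp (T v) (Submodule.mem_sup_right (Submodule.subset_span (by simp)))
      have e4 := hperp (T w) (Submodule.mem_sup_left (Submodule.subset_span (by simp)))
      have hwv : B w v = -1 := by rw [h.skew, hvw]
      simp only [map_add, map_smul, LinearMap.add_apply, LinearMap.smul_apply, smul_eq_mul, h.alt, hvw, hwv, hTvw,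
        hvTw, hTwv, h.refl _ _ hTvw, h.iso, hc v hv, hc w hw, h.refl _ _ (hc v hv), h.refl _ _ (hc w hw), mul_zero,
        mul_one, mul_neg, add_zero, zero_add, neg_eq_zero] at e1 e2 e3 e4
      subst e1 e2 e3 e4
      simp

end CfsgLib.SympInvol
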